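import Mathlib
import Cfsg.Agent.H27.Dual
import Cfsg.Agent.H45.Galois

/-!
# The weighted quadratic form of an abelian group acting faithfully on a `p`-group

For an abelian `p'`-group `C` acting faithfully on an abelian `p`-group `V`, a Galois stable family
of functions `f` on `C` with integral Fourier coefficients and `f 1 ≠ 0` satisfies, on average,
`|C| ^ 2 / |V| ≤ ∑ c, |f c| ^ 2 / |C_V c|`.
-/

set_option autoImplicit false

open scoped ComplexConjugate

universe u

namespace Cfsg.Agent.H45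

/-- All Fourier coefficients of `f` are algebraic integers. -/
def IntFourier {C : Type u} [CommGroup C] [Finite C] (f : C → ℂ) : Prop :=
  ∀ μ : C →* ℂˣ,
    IsIntegral ℤ ((Nat.card C : ℂ)⁻¹ * ∑ᶠ y : C, f y * ((μ y⁻¹ : ℂˣ) : ℂ))

/-- The lower bound `c` for the average of the form with weights `w` over Galois stable families. -/
def FormBound (C : Type u) [CommGroup C] [Finite C] (w : C → ℝ) (c : ℝ) : Prop :=
  ∀ (ι : Type u) [Fintype ι] (f : ι → C → ℂ), (∀ i, IntFourier (f i)) → (∀ i, f i 1 ≠ 0) →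
    (∀ σ : ℂ ≃+* ℂ, ∃ π : Equiv.Perm ι, ∀ i y, σ (f i y) = f (π i) y) →
      c * (Fintype.card ι : ℝ) ≤ ∑ i, ∑ᶠ y : C, w y * ‖f i y‖ ^ 2

/-- Monotonicity of the bound. -/
theorem FormBound.mono {C : Type u} [CommGroup C] [Finite C] {w w' : C → ℝ} {c c' : ℝ}
    (h : FormBound C w c) (hw : ∀ y, w y ≤ w' y) (hc : c' ≤ c) : FormBound C w' c' := by
  intro ι _ f hf h1 hgal
  have := Fintype.ofFinite C
  refine le_trans (mul_le_mul_of_nonneg_right hc (Nat.cast_nonneg _))
    ((h ι f hf h1 hgal).trans ?_)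
  simp only [finsum_eq_sum_of_fintype]
  exact Finset.sum_le_sum fun i _ => Finset.sum_le_sum fun y _ =>
    mul_le_mul_of_nonneg_right (hw y) (sq_nonneg _)

/-- The bound for the trivial group. -/
theorem formBound_subsingleton (C : Type u) [CommGroup C] [Finite C] [Subsingleton C] :
    FormBound C (fun _ => 1) 1 := by
  intro ι _ f hf h1 hgal
  have := Fintype.ofFinite C
  have hcard : Nat.card C = 1 := Nat.card_unique
  have hint : ∀ i, IsIntegral ℤ (f i 1) := fun i => by
    simpa [hcard, Nat.card_eq_fintype_card.symm.trans hcard, finsum_eq_sum_of_fintype,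
      Fintype.sum_subsingleton _ (1 : C)] using hf i 1
  have h := card_le_sum_norm_pow (fun i => f i 1) hint h1
    (fun σ => by obtain ⟨π, hπ⟩ := hgal σ; exact ⟨π, fun i => hπ i 1⟩) 2
  simpa [finsum_eq_sum_of_fintype, Fintype.sum_subsingleton _ (1 : C)] using h

/-- Restriction of the bound along an injective homomorphism. -/
theorem FormBound.comp_injective {C P : Type u} [CommGroup C] [Finite C] [CommGroup P] [Finite P]
    {w : P → ℝ} {c : ℝ} (h : FormBound P w c) (j : C →* P) (hj : Function.Injective j) :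
    FormBound C (fun y => w (j y)) (c / ((Nat.card P / Nat.card C : ℕ) : ℝ) ^ 2) := by
  intro ι _ f hf h1 hgal
  have := Fintype.ofFinite C
  have := Fintype.ofFinite P
  obtain ⟨q, hq⟩ := Subgroup.card_dvd_of_injective j hj
  have hCpos : 0 < Nat.card C := Nat.card_pos
  rw [hq, Nat.mul_div_cancel_left q hCpos]
  have hq0 : q ≠ 0 := by
    rintro rfl
    rw [mul_zero] at hq
    exact Nat.card_pos.ne' hq
  let F : ι → P → ℂ := fun i => Function.extend j (fun y => (q : ℂ) * f i y) 0
  have hFj : ∀ i y, F i (j y) = (q : ℂ) * f i y := fun i y => hj.extend_apply _ _ y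
  have hF0 : ∀ i x, (¬ ∃ y, j y = x) → F i x = 0 := fun i x hx =>
    Function.extend_apply' _ _ _ hx
  have hsum : ∀ {M : Type} [AddCommMonoid M] (φ : P → M), (∀ x, (¬ ∃ y, j y = x) → φ x = 0) →
      ∑ x : P, φ x = ∑ y : C, φ (j y) := by
    intro M _ φ hφ
    exact (Fintype.sum_of_injective j hj (fun y => φ (j y)) φ
      (fun x hx => hφ x fun ⟨y, hy⟩ => hx ⟨y, hy⟩) fun y => rfl).symm
  have hint : ∀ i, IntFourier (F i) := by
    intro i μ
    have h' := hf i (μ.comp j)
    convert h' using 1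
    simp only [finsum_eq_sum_of_fintype]
    rw [hsum (fun x => F i x * ((μ x⁻¹ : ℂˣ) : ℂ)) (fun x hx => by rw [hF0 i x hx, zero_mul]), hq,
      Finset.mul_sum, Finset.mul_sum]
    refine Finset.sum_congr rfl fun y _ => ?_
    rw [hFj, ← map_inv, Nat.cast_mul, mul_inv_rev]
    field_simp [(Nat.cast_ne_zero.2 hq0 : (q : ℂ) ≠ 0)]
    rfl
  have hF1 : ∀ i, F i 1 ≠ 0 := fun i => by
    rw [← map_one j, hFj]
    exact mul_ne_zero (Nat.cast_ne_zero.2 hq0) (h1 i)
  have hFgal : ∀ σ : ℂ ≃+* ℂ, ∃ π : Equiv.Perm ι, ∀ i x, σ (F i x) = F (π i) x := by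
    intro σ
    obtain ⟨π, hπ⟩ := hgal σ
    refine ⟨π, fun i x => ?_⟩
    by_cases hx : ∃ y, j y = x
    · obtain ⟨y, rfl⟩ := hx
      rw [hFj, hFj, map_mul, map_natCast, hπ]
    · rw [hF0 i x hx, hF0 (π i) x hx, map_zero]
  have hb := h ι F hint hF1 hFgal
  simp only [finsum_eq_sum_of_fintype] at hb ⊢
  have hE : ∑ i, ∑ x : P, w x * ‖F i x‖ ^ 2 = (q : ℝ) ^ 2 * ∑ i, ∑ y : C, w (j y) * ‖f i y‖ ^ 2 := by
    rw [Finset.mul_sum]
    refine Finset.sum_congr rfl fun i _ => ?_
    rw [hsum (fun x => w x * ‖F i x‖ ^ 2) (fun x hx => by simp [hF0 i x hx]), Finset.mul_sum]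
    refine Finset.sum_congr rfl fun y _ => ?_
    rw [hFj, norm_mul, Complex.norm_natCast]
    ring
  rw [hE] at hb
  rw [div_mul_eq_mul_div, div_le_iff₀ (by positivity)]
  linarith

section Prod

variable {A B : Type u} [CommGroup A] [Finite A] [CommGroup B] [Finite B]

/-- The partial Fourier coefficient of a function on `A × B` in the first variable. -/
noncomputable def partCoeff (F : A × B → ℂ) (μ : A →* ℂˣ) (b : B) : ℂ :=
  (Nat.card A : ℂ)⁻¹ * ∑ᶠ a : A, F (a, b) * ((μ a⁻¹ : ℂˣ) : ℂ)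

/-- Partial Fourier coefficients have integral Fourier coefficients. -/
theorem intFourier_partCoeff {F : A × B → ℂ} (hF : IntFourier F) (μ : A →* ℂˣ) :
    IntFourier (partCoeff F μ) := by
  intro η
  have := Fintype.ofFinite A
  have := Fintype.ofFinite B
  have h := hF ((μ.comp (MonoidHom.fst A B)) * (η.comp (MonoidHom.snd A B)))
  convert h using 1
  simp only [partCoeff, finsum_eq_sum_of_fintype, Nat.card_prod, Fintype.sum_prod_type,
    Finset.mul_sum, Finset.sum_mul]
  rw [Finset.sum_comm]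
  refine Finset.sum_congr rfl fun a _ => Finset.sum_congr rfl fun b _ => ?_
  simp only [Prod.inv_mk, MonoidHom.mul_apply, MonoidHom.comp_apply, MonoidHom.coe_fst,
    MonoidHom.coe_snd, Units.val_mul, Nat.cast_mul, mul_inv]
  ring

/-- The partial Fourier coefficients add up to the value at the identity. -/
theorem sum_partCoeff [Fintype (A →* ℂˣ)] (F : A × B → ℂ) (b : B) :
    ∑ μ : A →* ℂˣ, partCoeff F μ b = F (1, b) := by
  have := Fintype.ofFinite A
  have h := H27.fourier_inversion (fun a => F (a, b)) (1 : A)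
  simp only [map_one, Units.val_one, mul_one] at h
  rw [h]
  simp only [partCoeff, finsum_eq_sum_of_fintype]
  exact Finset.sum_congr (by ext; simp) fun μ _ => rfl

/-- Parseval in the first variable. -/
theorem sum_norm_sq_partCoeff [Fintype A] [Fintype (A →* ℂˣ)] (F : A × B → ℂ) (b : B) :
    ∑ a : A, ‖F (a, b)‖ ^ 2 = (Nat.card A : ℝ) * ∑ μ : A →* ℂˣ, ‖partCoeff F μ b‖ ^ 2 := by
  have key : ∑ a : A, F (a, b) * conj (F (a, b))
      = (Nat.card A : ℂ) * ∑ μ : A →* ℂˣ, partCoeff F μ b * conj (partCoeff F μ b) := by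
    have h : ∀ a : A, F (a, b) = ∑ μ : A →* ℂˣ, partCoeff F μ b * ((μ a : ℂˣ) : ℂ) := by
      intro a
      rw [H27.fourier_inversion (fun a => F (a, b)) a]
      simp only [partCoeff, finsum_eq_sum_of_fintype]
      exact Finset.sum_congr (by ext; simp) fun μ _ => rfl
    have h2 : ∀ μ : A →* ℂˣ, (Nat.card A : ℂ) * conj (partCoeff F μ b)
        = ∑ a : A, ((μ a : ℂˣ) : ℂ) * conj (F (a, b)) := by
      intro μ
      simp only [partCoeff, finsum_eq_sum_of_fintype, map_mul, map_inv₀, Complex.conj_natCast,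
        map_sum, H27.conj_linear, inv_inv]
      rw [mul_inv_cancel_left₀ (Nat.cast_ne_zero.2 Nat.card_pos.ne')]
      exact Finset.sum_congr rfl fun a _ => mul_comm _ _
    calc ∑ a : A, F (a, b) * conj (F (a, b))
        = ∑ a : A, ∑ μ : A →* ℂˣ,
            partCoeff F μ b * (((μ a : ℂˣ) : ℂ) * conj (F (a, b))) := by
          refine Finset.sum_congr rfl fun a _ => ?_
          conv_lhs => enter [1]; rw [h a]
          rw [Finset.sum_mul]
          exact Finset.sum_congr rfl fun μ _ => mul_assoc _ _ _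
      _ = ∑ μ : A →* ℂˣ, partCoeff F μ b * ((Nat.card A : ℂ) * conj (partCoeff F μ b)) := by
          rw [Finset.sum_comm]
          exact Finset.sum_congr rfl fun μ _ => by rw [h2, Finset.mul_sum]
      _ = _ := by
          rw [Finset.mul_sum]
          exact Finset.sum_congr rfl fun μ _ => by ring
  simp only [Complex.mul_conj, Complex.normSq_eq_norm_sq] at key
  exact_mod_cast key

/-- The pair identity: the sum of the squared differences. -/
theorem sum_norm_sub_sq {ι : Type*} [Fintype ι] (x : ι → ℂ) :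
    ∑ i, ∑ j, ‖x i - x j‖ ^ 2
      = 2 * (Fintype.card ι : ℝ) * ∑ i, ‖x i‖ ^ 2 - 2 * ‖∑ i, x i‖ ^ 2 := by
  simp only [← Complex.normSq_eq_norm_sq, Complex.normSq_sub, Finset.sum_sub_distrib,
    Finset.sum_add_distrib, Finset.sum_const, Finset.card_univ, nsmul_eq_mul, ← Finset.mul_sum,
    ← Complex.re_sum, ← Finset.sum_mul, ← map_sum]
  rw [Complex.mul_conj, Complex.ofReal_re]
  ring

/-- The elementary count: with `N ≥ 1` of `n` values nonzero, `n ≤ N + m * N * (n - N)`. -/
theorem count_aux {N n m : ℕ} (hN : 1 ≤ N) (hNn : N ≤ n) (hm : 1 ≤ m) :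
    (n : ℝ) ≤ N + (m : ℝ) * (N * ((n : ℝ) - N)) := by
  have h : (n : ℝ) - N ≥ 0 := sub_nonneg.2 (Nat.cast_le.2 hNn)
  have h1 : (1 : ℝ) ≤ N := by exact_mod_cast hN
  have h2 : (1 : ℝ) ≤ m := by exact_mod_cast hm
  have h3 : ((n : ℝ) - N) ≤ N * ((n : ℝ) - N) := le_mul_of_one_le_left h h1
  have h4 : N * ((n : ℝ) - N) ≤ m * (N * ((n : ℝ) - N)) :=
    le_mul_of_one_le_left (by positivity) h2
  linarith

/-- Pairs of distinct values, one of them zero, are plentiful. -/
theorem count_pairs {α : Type*} [Fintype α] [DecidableEq α] (x : α → ℂ) :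
    2 * ((Finset.univ.filter fun a => x a ≠ 0).card
        * (Finset.univ.filter fun a => x a = 0).card)
      ≤ (Finset.univ.filter fun q : α × α => x q.1 - x q.2 ≠ 0).card := by
  set S := Finset.univ.filter fun a => x a ≠ 0
  set T := Finset.univ.filter fun a => x a = 0
  have hd : Disjoint (S ×ˢ T) (T ×ˢ S) := by
    rw [Finset.disjoint_left]
    rintro ⟨a, b⟩ h1 h2
    exact (Finset.mem_filter.1 (Finset.mem_product.1 h1).1).2
      (Finset.mem_filter.1 (Finset.mem_product.1 h2).1).2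
  have hsub : S ×ˢ T ∪ T ×ˢ S ⊆ Finset.univ.filter fun q : α × α => x q.1 - x q.2 ≠ 0 := by
    rintro ⟨a, b⟩ hab
    simp only [S, T, Finset.mem_union, Finset.mem_product, Finset.mem_filter, Finset.mem_univ,
      true_and] at hab ⊢
    rcases hab with ⟨h1, h2⟩ | ⟨h1, h2⟩
    · simpa [h2] using h1
    · simpa [h1] using h2
  refine le_trans (le_of_eq ?_) (Finset.card_le_card hsub)
  rw [Finset.card_union_of_disjoint hd, Finset.card_product, Finset.card_product]
  ring

/-- The tensor step: a semiregular factor. -/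
theorem FormBound.prod_semiregular [DecidableEq A] {w : B → ℝ} {c : ℝ} (h : FormBound B w c)
    (hw : ∀ b, 0 ≤ w b) (hc : 0 ≤ c) {q m : ℕ} (hm : 1 ≤ m) (hq : q = 1 + m * Nat.card A) :
    FormBound (A × B) (fun x => (if x.1 = 1 then (q : ℝ)⁻¹ else 1) * w x.2)
      ((Nat.card A : ℝ) ^ 2 / q * c) := by
  classical
  intro ι _ F hF h1 hgal
  have := Fintype.ofFinite A
  have := Fintype.ofFinite B
  have : Fintype (A →* ℂˣ) := H27.dualFintype
  set n := Nat.card A with hn
  let ι₁ := {p : ι × (A →* ℂˣ) // partCoeff (F p.1) p.2 1 ≠ 0}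
  let ι₂ := {p : ι × ((A →* ℂˣ) × (A →* ℂˣ)) //
    partCoeff (F p.1) p.2.1 1 - partCoeff (F p.1) p.2.2 1 ≠ 0}
  let g₁ : ι₁ → B → ℂ := fun p => partCoeff (F p.1.1) p.1.2
  let g₂ : ι₂ → B → ℂ := fun p b =>
    partCoeff (F p.1.1) p.1.2.1 b - partCoeff (F p.1.1) p.1.2.2 b
  have htw : ∀ σ : ℂ ≃+* ℂ, ∀ π : Equiv.Perm ι, (∀ i x, σ (F i x) = F (π i) x) →
      ∀ i (μ : A →* ℂˣ) b, σ (partCoeff (F i) μ b)
        = partCoeff (F (π i)) ((Units.map σ.toRingHom.toMonoidHom).comp μ) b := by
    intro σ π hπ i μ b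
    simp only [partCoeff, finsum_eq_sum_of_fintype, map_mul, map_inv₀, map_natCast, map_sum, hπ]
    rfl
  have hdual : ∀ σ : ℂ ≃+* ℂ, Function.Injective
      fun μ : A →* ℂˣ => (Units.map σ.toRingHom.toMonoidHom).comp μ := fun σ μ ν h => by
    refine MonoidHom.ext fun a => Units.ext (σ.injective ?_)
    exact congrArg Units.val (DFunLike.congr_fun h a)
  have hb₁ := h ι₁ g₁ (fun p => intFourier_partCoeff (hF _) _) (fun p => p.2) (fun σ => by
    obtain ⟨π, hπ⟩ := hgal σ
    let T : ι₁ → ι₁ := fun p => ⟨(π p.1.1, (Units.map σ.toRingHom.toMonoidHom).comp p.1.2), by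
      rw [← htw σ π hπ]; exact (map_ne_zero_iff σ σ.injective).2 p.2⟩
    have hT : Function.Injective T := fun a b hab => by
      have h' := congrArg Subtype.val hab
      simp only [T, Prod.mk.injEq] at h'
      exact Subtype.ext (Prod.ext (π.injective h'.1) (hdual σ h'.2))
    exact ⟨Equiv.ofBijective T (Finite.injective_iff_bijective.1 hT),
      fun p b => htw σ π hπ _ _ b⟩)
  have hb₂ := h ι₂ g₂ (fun p η => by
      have e : ((Nat.card B : ℂ)⁻¹ * ∑ᶠ b : B, g₂ p b * ((η b⁻¹ : ℂˣ) : ℂ))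
          = (Nat.card B : ℂ)⁻¹ * ∑ᶠ b : B, partCoeff (F p.1.1) p.1.2.1 b * ((η b⁻¹ : ℂˣ) : ℂ)
            - (Nat.card B : ℂ)⁻¹ *
                ∑ᶠ b : B, partCoeff (F p.1.1) p.1.2.2 b * ((η b⁻¹ : ℂˣ) : ℂ) := by
        simp only [g₂, finsum_eq_sum_of_fintype, sub_mul, Finset.sum_sub_distrib, mul_sub]
      rw [e]
      exact (intFourier_partCoeff (hF _) _ η).sub (intFourier_partCoeff (hF _) _ η))
    (fun p => p.2) (fun σ => by
    obtain ⟨π, hπ⟩ := hgal σ
    let T : ι₂ → ι₂ := fun p => ⟨(π p.1.1, (Units.map σ.toRingHom.toMonoidHom).comp p.1.2.1,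
        (Units.map σ.toRingHom.toMonoidHom).comp p.1.2.2), by
      rw [← htw σ π hπ, ← htw σ π hπ, ← map_sub]
      exact (map_ne_zero_iff σ σ.injective).2 p.2⟩
    have hT : Function.Injective T := fun a b hab => by
      have h' := congrArg Subtype.val hab
      simp only [T, Prod.mk.injEq] at h'
      exact Subtype.ext (Prod.ext (π.injective h'.1)
        (Prod.ext (hdual σ h'.2.1) (hdual σ h'.2.2)))
    exact ⟨Equiv.ofBijective T (Finite.injective_iff_bijective.1 hT),
      fun p b => by rw [show σ (g₂ p b) = _ from map_sub σ _ _, htw σ π hπ, htw σ π hπ]; rfl⟩)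
  -- counting
  have hcount : ∀ i, (n : ℝ) ≤ ((Finset.univ.filter fun μ => partCoeff (F i) μ 1 ≠ 0).card : ℝ)
      + (m : ℝ) / 2 * ((Finset.univ.filter fun q : (A →* ℂˣ) × (A →* ℂˣ) =>
          partCoeff (F i) q.1 1 - partCoeff (F i) q.2 1 ≠ 0).card : ℝ) := by
    intro i
    set S := Finset.univ.filter fun μ => partCoeff (F i) μ 1 ≠ 0 with hS
    set T := Finset.univ.filter fun μ => partCoeff (F i) μ 1 = 0 with hT
    have hST : S.card + T.card = n := by
      rw [hS, hT, hn, ← H27.card_linear (C := A), Nat.card_eq_fintype_card, ← Finset.card_univ,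
        add_comm]
      exact Finset.card_filter_add_card_filter_not (fun μ => partCoeff (F i) μ 1 = 0)
    have hS1 : 1 ≤ S.card := by
      rw [Nat.one_le_iff_ne_zero, Finset.card_ne_zero]
      by_contra hne
      rw [Finset.not_nonempty_iff_eq_empty, hS, Finset.filter_eq_empty_iff] at hne
      apply h1 i
      show F i (1, 1) = 0
      rw [← sum_partCoeff (F i) 1]
      exact Finset.sum_eq_zero fun μ hμ => not_not.1 (hne (Finset.mem_univ μ))
    have hp : ((2 * (S.card * T.card) : ℕ) : ℝ)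
        ≤ ((Finset.univ.filter fun q : (A →* ℂˣ) × (A →* ℂˣ) =>
          partCoeff (F i) q.1 1 - partCoeff (F i) q.2 1 ≠ 0).card : ℝ) :=
      Nat.cast_le.2 (count_pairs fun μ => partCoeff (F i) μ 1)
    have h5 := count_aux hS1 (hST ▸ Nat.le_add_right _ _) hm
    rw [← hST] at h5
    push_cast at hp h5
    rw [← hST]
    push_cast
    rw [add_sub_cancel_left] at h5
    nlinarith
  have hc₁ : (Fintype.card ι₁ : ℝ) =
      ∑ i, ((Finset.univ.filter fun μ => partCoeff (F i) μ 1 ≠ 0).card : ℝ) := by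
    simp only [ι₁, Fintype.card_subtype, Finset.card_filter, Fintype.sum_prod_type, Nat.cast_sum]
  have hc₂ : (Fintype.card ι₂ : ℝ) =
      ∑ i, ((Finset.univ.filter fun q : (A →* ℂˣ) × (A →* ℂˣ) =>
          partCoeff (F i) q.1 1 - partCoeff (F i) q.2 1 ≠ 0).card : ℝ) := by
    simp only [ι₂, Fintype.card_subtype, Finset.card_filter, Nat.cast_sum]
    exact Fintype.sum_prod_type _
  -- the quadratic forms
  have hQ₁ : ∑ p : ι₁, ∑ᶠ b : B, w b * ‖g₁ p b‖ ^ 2
      ≤ ∑ i, ∑ μ : A →* ℂˣ, ∑ b : B, w b * ‖partCoeff (F i) μ b‖ ^ 2 := by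
    simp only [finsum_eq_sum_of_fintype]
    let φ : ι × (A →* ℂˣ) → ℝ := fun p => ∑ b : B, w b * ‖partCoeff (F p.1) p.2 b‖ ^ 2
    calc ∑ p : ι₁, ∑ b : B, w b * ‖g₁ p b‖ ^ 2
        = ∑ p ∈ Finset.univ.filter fun p : ι × (A →* ℂˣ) => partCoeff (F p.1) p.2 1 ≠ 0, φ p :=
          (Finset.sum_subtype _ (fun p => by simp) φ).symm
      _ ≤ ∑ p, φ p := Finset.sum_le_sum_of_subset_of_nonneg (Finset.subset_univ _)
          fun p _ _ => Finset.sum_nonneg fun b _ => mul_nonneg (hw b) (sq_nonneg _)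
      _ = _ := Fintype.sum_prod_type φ
  have hQ₂ : ∑ p : ι₂, ∑ᶠ b : B, w b * ‖g₂ p b‖ ^ 2
      ≤ ∑ i, ∑ μ : A →* ℂˣ, ∑ ν : A →* ℂˣ,
          ∑ b : B, w b * ‖partCoeff (F i) μ b - partCoeff (F i) ν b‖ ^ 2 := by
    simp only [finsum_eq_sum_of_fintype]
    let φ : ι × ((A →* ℂˣ) × (A →* ℂˣ)) → ℝ := fun p =>
      ∑ b : B, w b * ‖partCoeff (F p.1) p.2.1 b - partCoeff (F p.1) p.2.2 b‖ ^ 2
    calc ∑ p : ι₂, ∑ b : B, w b * ‖g₂ p b‖ ^ 2
        = ∑ p ∈ Finset.univ.filter fun p : ι × ((A →* ℂˣ) × (A →* ℂˣ)) =>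
            partCoeff (F p.1) p.2.1 1 - partCoeff (F p.1) p.2.2 1 ≠ 0, φ p :=
          (Finset.sum_subtype _ (fun p => by simp) φ).symm
      _ ≤ ∑ p, φ p := Finset.sum_le_sum_of_subset_of_nonneg (Finset.subset_univ _)
          fun p _ _ => Finset.sum_nonneg fun b _ => mul_nonneg (hw b) (sq_nonneg _)
      _ = _ := by
        rw [Fintype.sum_prod_type]
        exact Finset.sum_congr rfl fun i _ => Fintype.sum_prod_type _
  have hq0 : (0 : ℝ) < q := by
    rw [hq]; positivity
  have hqR : (q : ℝ) = 1 + (m : ℝ) * (n : ℝ) := by rw [hq]; push_cast; rfl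
  have hdual_card : (Fintype.card (A →* ℂˣ) : ℝ) = n := by
    rw [hn, ← H27.card_linear (C := A), Nat.card_eq_fintype_card]
  have hid : ∀ i, (q : ℝ) * ∑ x : A × B,
        (if x.1 = 1 then (q : ℝ)⁻¹ else 1) * w x.2 * ‖F i x‖ ^ 2
      = (n : ℝ) * ((∑ μ : A →* ℂˣ, ∑ b : B, w b * ‖partCoeff (F i) μ b‖ ^ 2)
        + (m : ℝ) / 2 * ∑ μ : A →* ℂˣ, ∑ ν : A →* ℂˣ,
          ∑ b : B, w b * ‖partCoeff (F i) μ b - partCoeff (F i) ν b‖ ^ 2) := by
    intro i
    have e1 : ∑ μ : A →* ℂˣ, ∑ ν : A →* ℂˣ,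
        ∑ b : B, w b * ‖partCoeff (F i) μ b - partCoeff (F i) ν b‖ ^ 2
        = ∑ b : B, w b * (2 * (n : ℝ) * ∑ μ : A →* ℂˣ, ‖partCoeff (F i) μ b‖ ^ 2
          - 2 * ‖F i (1, b)‖ ^ 2) := by
      rw [Finset.sum_congr rfl fun μ _ => Finset.sum_comm, Finset.sum_comm]
      refine Finset.sum_congr rfl fun b _ => ?_
      simp only [← Finset.mul_sum]
      rw [sum_norm_sub_sq, hdual_card, sum_partCoeff (F i) b]
    have e2 : ∀ b : B, ∑ a : A, (if a = 1 then (q : ℝ)⁻¹ else 1) * ‖F i (a, b)‖ ^ 2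
        = (n : ℝ) * (∑ μ : A →* ℂˣ, ‖partCoeff (F i) μ b‖ ^ 2)
          + ((q : ℝ)⁻¹ - 1) * ‖F i (1, b)‖ ^ 2 := by
      intro b
      rw [← sum_norm_sq_partCoeff (F i) b, ← Finset.add_sum_erase _ _ (Finset.mem_univ (1 : A)),
        if_pos rfl, ← Finset.add_sum_erase _ (fun a => ‖F i (a, b)‖ ^ 2) (Finset.mem_univ (1 : A)),
        Finset.sum_congr rfl fun a ha => by
          rw [if_neg (Finset.ne_of_mem_erase ha), one_mul]]
      ring
    have e3 : ∑ x : A × B, (if x.1 = 1 then (q : ℝ)⁻¹ else 1) * w x.2 * ‖F i x‖ ^ 2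
        = ∑ b : B, w b * ((n : ℝ) * (∑ μ : A →* ℂˣ, ‖partCoeff (F i) μ b‖ ^ 2)
          + ((q : ℝ)⁻¹ - 1) * ‖F i (1, b)‖ ^ 2) := by
      rw [Fintype.sum_prod_type, Finset.sum_comm]
      refine Finset.sum_congr rfl fun b _ => ?_
      rw [← e2, Finset.mul_sum]
      exact Finset.sum_congr rfl fun a _ => by ring
    have e4 : ∑ μ : A →* ℂˣ, ∑ b : B, w b * ‖partCoeff (F i) μ b‖ ^ 2
        = ∑ b : B, w b * ∑ μ : A →* ℂˣ, ‖partCoeff (F i) μ b‖ ^ 2 := by
      rw [Finset.sum_comm]
      exact Finset.sum_congr rfl fun b _ => (Finset.mul_sum _ _ _).symm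
    rw [e1, e3, e4, Finset.mul_sum]
    simp only [Finset.mul_sum (a := (m : ℝ) / 2)]
    rw [← Finset.sum_add_distrib, Finset.mul_sum]
    refine Finset.sum_congr rfl fun b _ => ?_
    generalize ∑ μ : A →* ℂˣ, ‖partCoeff (F i) μ b‖ ^ 2 = S
    generalize ‖F i (1, b)‖ ^ 2 = T
    field_simp
    rw [hqR]
    ring
  simp only [finsum_eq_sum_of_fintype] at hb₁ hb₂ hQ₁ hQ₂ ⊢
  have hm0 : (0 : ℝ) ≤ (m : ℝ) / 2 := by positivity
  have htot : (n : ℝ) * (c * (n * Fintype.card ι))
      ≤ (q : ℝ) * ∑ i, ∑ x : A × B,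
        (if x.1 = 1 then (q : ℝ)⁻¹ else 1) * w x.2 * ‖F i x‖ ^ 2 := by
    simp only [Finset.mul_sum (a := (q : ℝ))] at hid ⊢
    rw [Finset.sum_congr rfl fun i _ => hid i, ← Finset.mul_sum, Finset.sum_add_distrib,
      ← Finset.mul_sum]
    refine mul_le_mul_of_nonneg_left ?_ (Nat.cast_nonneg n)
    calc c * ((n : ℝ) * Fintype.card ι) = c * ∑ _i : ι, (n : ℝ) := by
          rw [Finset.sum_const, Finset.card_univ, nsmul_eq_mul, mul_comm (n : ℝ)]
      _ ≤ c * ((Fintype.card ι₁ : ℝ) + (m : ℝ) / 2 * Fintype.card ι₂) := by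
          refine mul_le_mul_of_nonneg_left ?_ hc
          rw [hc₁, hc₂, Finset.mul_sum, ← Finset.sum_add_distrib]
          exact Finset.sum_le_sum fun i _ => hcount i
      _ = c * (Fintype.card ι₁ : ℝ) + (m : ℝ) / 2 * (c * Fintype.card ι₂) := by ring
      _ ≤ _ := add_le_add (hb₁.trans hQ₁) (mul_le_mul_of_nonneg_left (hb₂.trans hQ₂) hm0)
  calc (n : ℝ) ^ 2 / q * c * (Fintype.card ι : ℝ)
      = ((n : ℝ) * (c * (n * Fintype.card ι))) / q := by ring
    _ ≤ _ := by
      rw [div_le_iff₀ hq0, mul_comm _ (q : ℝ)]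
      exact htot

end Prod

section Faithful

/-- An automorphism of order prime to `p` that is trivial on a subgroup `K` and on the cosets of
`K` in a `p`-group is trivial. -/
theorem fixed_of_stable_pair {C V : Type*} [Group C] [Finite C] [CommGroup V] (p : ℕ)
    [Fact p.Prime] (hp : ¬ p ∣ Nat.card C) (hV : IsPGroup p V) (φ : C →* MulAut V)
    (K : Subgroup V) {y : C} (h1 : ∀ k ∈ K, φ y k = k) (h2 : ∀ v, (φ y v) * v⁻¹ ∈ K) (v : V) :
    φ y v = v := by
  set k := (φ y v) * v⁻¹ with hk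
  have hstep : φ y v = k * v := by rw [hk, inv_mul_cancel_right]
  have hk1 : φ y k = k := h1 k (h2 v)
  clear_value k
  clear hk
  have hpow : ∀ j : ℕ, φ (y ^ j) v = k ^ j * v := by
    intro j
    induction j with
    | zero => simp
    | succ j ih =>
      rw [pow_succ', map_mul, MulAut.mul_apply, ih, map_mul, map_pow, hk1, hstep,
        pow_succ, mul_assoc]
  have h3 := hpow (Nat.card C)
  rw [pow_card_eq_one', map_one, MulAut.one_apply, eq_comm, mul_eq_right] at h3
  obtain ⟨e, he⟩ := hV k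
  have hcop : Nat.Coprime (Nat.card C) (p ^ e) :=
    (((Fact.out : p.Prime).coprime_iff_not_dvd.2 hp).pow_left e).symm
  have h4 : k = 1 := orderOf_eq_one_iff.1 (Nat.eq_one_of_dvd_coprimes hcop
    (orderOf_dvd_of_pow_eq_one h3) (orderOf_dvd_of_pow_eq_one he))
  rw [hstep, h4, one_mul]

/-- A group acting semiregularly on the non-identity elements has order dividing `|V| - 1`. -/
theorem exists_eq_one_add_mul {C V : Type*} [Group C] [Finite C] [Group V] [Finite V]
    [Nontrivial V] (φ : C →* MulAut V) (h : ∀ y v, v ≠ 1 → φ y v = v → y = 1) :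
    ∃ m : ℕ, 1 ≤ m ∧ Nat.card V = 1 + m * Nat.card C := by
  classical
  let X := {v : V // v ≠ 1}
  letI : MulAction C X :=
    { smul := fun y v => ⟨φ y v.1, fun e => v.2 ((φ y).injective (by rw [e, map_one]))⟩
      one_smul := fun v => Subtype.ext (by show φ 1 v.1 = v.1; rw [map_one, MulAut.one_apply])
      mul_smul := fun a b v => Subtype.ext (by
        show φ (a * b) v.1 = φ a (φ b v.1); rw [map_mul, MulAut.mul_apply]) }
  have hfree : ∀ v : X, MulAction.stabilizer C v = ⊥ := fun v => by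
    rw [eq_bot_iff]
    intro y hy
    exact Subgroup.mem_bot.2 (h y v.1 v.2 (congrArg Subtype.val (MulAction.mem_stabilizer_iff.1 hy)))
  have hX : Nat.card X = Nat.card (Quotient (MulAction.orbitRel C X)) * Nat.card C := by
    rw [Nat.card_congr (MulAction.selfEquivOrbitsQuotientProd hfree), Nat.card_prod]
  have hV : Nat.card V = 1 + Nat.card X := by
    rw [← Nat.card_congr (Equiv.sumCompl fun v : V => v = 1), Nat.card_sum]
    congr 1
    exact Nat.card_unique
  refine ⟨Nat.card (Quotient (MulAction.orbitRel C X)), ?_, by rw [hV, hX]⟩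
  obtain ⟨v, hv⟩ := exists_ne (1 : V)
  haveI : Nonempty (Quotient (MulAction.orbitRel C X)) := ⟨Quotient.mk _ ⟨v, hv⟩⟩
  exact Nat.card_pos

/-- The bound for an abelian `p'`-group acting faithfully on an abelian `p`-group. -/
theorem formBound_faithful {C V : Type u} [CommGroup C] [Finite C] [CommGroup V] [Finite V]
    (p : ℕ) [Fact p.Prime] (hp : ¬ p ∣ Nat.card C) (hV : IsPGroup p V) (φ : C →* MulAut V)
    (hφ : Function.Injective φ) :
    FormBound C (fun y => (Nat.card {v : V // φ y v = v} : ℝ)⁻¹)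
      ((Nat.card C : ℝ) ^ 2 / Nat.card V) := by
  classical
  suffices ∀ (n : ℕ) (C V : Type u) [CommGroup C] [Finite C] [CommGroup V] [Finite V],
      ¬ p ∣ Nat.card C → IsPGroup p V → ∀ φ : C →* MulAut V, Function.Injective φ →
      Nat.card V = n → FormBound C (fun y => (Nat.card {v : V // φ y v = v} : ℝ)⁻¹)
        ((Nat.card C : ℝ) ^ 2 / Nat.card V) from this _ C V hp hV φ hφ rfl
  clear hp hV hφ φ
  intro n
  induction n using Nat.strong_induction_on with
  | _ n ih =>
    intro C V _ _ _ _ hp hV φ hφ hn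
    subst hn
    rcases subsingleton_or_nontrivial V with hsub | hnt
    · haveI : Subsingleton C := ⟨fun a b => hφ (MulEquiv.ext fun v => Subsingleton.elim _ _)⟩
      have hb := formBound_subsingleton C
      refine hb.mono (fun y => ?_) ?_
      · haveI : Unique {v : V // φ y v = v} :=
          uniqueOfSubsingleton ⟨1, map_one _⟩
        rw [Nat.card_unique, Nat.cast_one, inv_one]
      · simp [Nat.card_unique]
    -- a minimal nontrivial invariant subgroup
    obtain ⟨K, ⟨hK1, hKinv⟩, hKmin⟩ := Set.Finite.exists_minimalFor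
      (fun K : Subgroup V => Nat.card K)
      {K : Subgroup V | K ≠ ⊥ ∧ ∀ y v, v ∈ K → φ y v ∈ K} (Set.toFinite _)
      ⟨⊤, top_ne_bot, fun _ _ _ => Subgroup.mem_top _⟩
    -- the action on `K`
    let φK : C →* MulAut K :=
      { toFun := fun y =>
          { toFun := fun k => ⟨φ y k, hKinv y k k.2⟩
            invFun := fun k => ⟨φ y⁻¹ k, hKinv y⁻¹ k k.2⟩
            left_inv := fun k => Subtype.ext (by
              show φ y⁻¹ (φ y k) = k
              rw [← MulAut.mul_apply, ← map_mul, inv_mul_cancel, map_one, MulAut.one_apply])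
            right_inv := fun k => Subtype.ext (by
              show φ y (φ y⁻¹ k) = k
              rw [← MulAut.mul_apply, ← map_mul, mul_inv_cancel, map_one, MulAut.one_apply])
            map_mul' := fun a b => Subtype.ext (map_mul (φ y) _ _) }
        map_one' := MulEquiv.ext fun k => Subtype.ext (by
          show φ 1 (k : V) = k
          rw [map_one, MulAut.one_apply])
        map_mul' := fun a b => MulEquiv.ext fun k => Subtype.ext (by
          show φ (a * b) (k : V) = φ a (φ b k)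
          rw [map_mul, MulAut.mul_apply]) }
    have hKmap : ∀ y, K.map ((φ y : V ≃* V) : V →* V) = K := by
      intro y
      refine le_antisymm ?_ fun v hv => ⟨φ y⁻¹ v, hKinv y⁻¹ v hv, ?_⟩
      · rintro _ ⟨v, hv, rfl⟩
        exact hKinv y v hv
      · show φ y (φ y⁻¹ v) = v
        rw [← MulAut.mul_apply, ← map_mul, mul_inv_cancel, map_one, MulAut.one_apply]
    let φQ : C →* MulAut (V ⧸ K) :=
      { toFun := fun y => QuotientGroup.congr K K (φ y) (hKmap y)
        map_one' := MulEquiv.ext fun x => by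
          obtain ⟨v, rfl⟩ := QuotientGroup.mk_surjective x
          show ((φ 1 v : V) : V ⧸ K) = v
          rw [map_one, MulAut.one_apply]
        map_mul' := fun a b => MulEquiv.ext fun x => by
          obtain ⟨v, rfl⟩ := QuotientGroup.mk_surjective x
          show ((φ (a * b) v : V) : V ⧸ K) = ((φ a (φ b v) : V) : V ⧸ K)
          rw [map_mul, MulAut.mul_apply] }
    let A := C ⧸ φK.ker
    let B := C ⧸ φQ.ker
    let ψA : A →* MulAut K := QuotientGroup.kerLift φK
    let ψB : B →* MulAut (V ⧸ K) := QuotientGroup.kerLift φQ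
    have hpA : ¬ p ∣ Nat.card A := fun h => hp (h.trans (Subgroup.card_quotient_dvd_card _))
    have hpB : ¬ p ∣ Nat.card B := fun h => hp (h.trans (Subgroup.card_quotient_dvd_card _))
    haveI : Nontrivial K := (Subgroup.nontrivial_iff_ne_bot K).2 hK1
    -- the action of `A` on `K` is semiregular
    have hsemi : ∀ a v, v ≠ 1 → ψA a v = v → a = 1 := by
      intro a
      induction a using QuotientGroup.induction_on with
      | _ y =>
        intro v hv hfix
        let L : Subgroup V :=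
          { carrier := {v | v ∈ K ∧ φ y v = v}
            one_mem' := ⟨K.one_mem, map_one _⟩
            mul_mem' := fun {a b} ha hb => ⟨K.mul_mem ha.1 hb.1, by rw [map_mul, ha.2, hb.2]⟩
            inv_mem' := fun {a} ha => ⟨K.inv_mem ha.1, by rw [map_inv, ha.2]⟩ }
        have hvy : φ y (v : V) = v := congrArg Subtype.val hfix
        have hL : L ∈ {K : Subgroup V | K ≠ ⊥ ∧ ∀ y v, v ∈ K → φ y v ∈ K} := by
          refine ⟨fun h => hv (Subtype.ext ?_), fun z w hw => ⟨hKinv z w hw.1, ?_⟩⟩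
          · exact Subgroup.mem_bot.1 (h ▸ (show (v : V) ∈ L from ⟨v.2, hvy⟩))
          · show φ y (φ z w) = φ z w
            rw [← MulAut.mul_apply, ← map_mul, mul_comm y z, map_mul, MulAut.mul_apply, hw.2]
        have hle : L ≤ K := fun w hw => hw.1
        have hKL : L = K := Subgroup.eq_of_le_of_card_ge hle
          (hKmin hL (Subgroup.card_le_of_le hle))
        rw [QuotientGroup.eq_one_iff, MonoidHom.mem_ker]
        ext k
        exact ((hKL.symm ▸ k.2 : (k : V) ∈ L)).2
    obtain ⟨m, hm, hcardK⟩ := exists_eq_one_add_mul ψA hsemi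
    -- induction on the quotient
    have hK2 : 1 < Nat.card K := Finite.one_lt_card
    have hVK : Nat.card V = Nat.card (V ⧸ K) * Nat.card K :=
      Subgroup.card_eq_card_quotient_mul_card_subgroup K
    have hlt : Nat.card (V ⧸ K) < Nat.card V := by
      rw [hVK]; exact lt_mul_of_one_lt_right Nat.card_pos hK2
    have hbB := ih _ hlt B (V ⧸ K) hpB (hV.to_quotient K) ψB (QuotientGroup.kerLift_injective φQ) rfl
    have hbAB := hbB.prod_semiregular (A := A) (fun b => by positivity) (by positivity) hm hcardK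
    let j : C →* A × B := (QuotientGroup.mk' φK.ker).prod (QuotientGroup.mk' φQ.ker)
    have hj : Function.Injective j := by
      rw [injective_iff_map_eq_one]
      intro y hy
      have hyA : φK y = 1 := MonoidHom.mem_ker.1 ((QuotientGroup.eq_one_iff y).1
        (congrArg Prod.fst hy))
      have hyB : φQ y = 1 := MonoidHom.mem_ker.1 ((QuotientGroup.eq_one_iff y).1
        (congrArg Prod.snd hy))
      apply hφ
      rw [map_one]
      ext v
      refine fixed_of_stable_pair p hp hV φ K (fun k hk => ?_) (fun w => ?_) v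
      · exact congrArg Subtype.val (DFunLike.congr_fun hyA ⟨k, hk⟩)
      · rw [← QuotientGroup.eq_one_iff, QuotientGroup.mk_mul, QuotientGroup.mk_inv,
          mul_inv_eq_one]
        exact DFunLike.congr_fun hyB (w : V ⧸ K)
    have hCpos : (0 : ℝ) < Nat.card C := Nat.cast_pos.2 Nat.card_pos
    refine (hbAB.comp_injective j hj).mono (fun y => ?_) (le_of_eq ?_)
    · -- the weights
      let F := {v : V // φ y v = v}
      have hpos : 0 < Nat.card F := by
        haveI : Nonempty F := ⟨⟨1, map_one _⟩⟩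
        exact Nat.card_pos
      let g : F → {x : V ⧸ K // ψB (j y).2 x = x} := fun v =>
        ⟨((v.1 : V) : V ⧸ K), show ((φ y v.1 : V) : V ⧸ K) = _ by rw [v.2]⟩
      have hfib : Nat.card F
          ≤ Nat.card {k : K // φ y (k : V) = k} * Nat.card {x : V ⧸ K // ψB (j y).2 x = x} := by
        let s : {x : V ⧸ K // ψB (j y).2 x = x} → F := fun x =>
          if h : ∃ v : F, g v = x then h.choose else ⟨1, map_one _⟩
        have hs : ∀ v, g (s (g v)) = g v := fun v => by
          have h : ∃ w : F, g w = g v := ⟨v, rfl⟩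
          simp only [s, dif_pos h]
          exact h.choose_spec
        let e : F → {k : K // φ y (k : V) = k} × {x : V ⧸ K // ψB (j y).2 x = x} := fun v =>
          (⟨⟨v.1 * (s (g v)).1⁻¹, by
              rw [← QuotientGroup.eq_one_iff, QuotientGroup.mk_mul, QuotientGroup.mk_inv,
                mul_inv_eq_one]
              exact (congrArg Subtype.val (hs v)).symm⟩, by
              show φ y (v.1 * (s (g v)).1⁻¹) = _
              rw [map_mul, map_inv, v.2, (s (g v)).2]⟩, g v)
        rw [← Nat.card_prod]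
        refine Nat.card_le_card_of_injective e fun a b hab => ?_
        have h1 := congrArg (fun q => ((q.1.1 : K) : V)) hab
        have h2 : g a = g b := congrArg Prod.snd hab
        simp only [e, h2] at h1
        exact Subtype.ext (mul_right_cancel h1)
      have hKle : (Nat.card {k : K // φ y (k : V) = k} : ℝ)
          ≤ if (j y).1 = 1 then (Nat.card K : ℝ) else 1 := by
        split_ifs with h
        · exact_mod_cast Nat.card_le_card_of_injective _ Subtype.val_injective
        · have : Subsingleton {k : K // φ y (k : V) = k} := by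
            refine ⟨fun a b => ?_⟩
            have h1 : ∀ c : {k : K // φ y (k : V) = k}, c.1 = 1 := fun c => by
              by_contra hc
              exact h (hsemi _ c.1 hc (Subtype.ext c.2))
            exact Subtype.ext ((h1 a).trans (h1 b).symm)
          exact_mod_cast Finite.card_le_one_iff_subsingleton.2 this
      have hFR : (0 : ℝ) < Nat.card F := Nat.cast_pos.2 hpos
      show (if (j y).1 = 1 then (Nat.card K : ℝ)⁻¹ else 1) *
        (Nat.card {x : V ⧸ K // ψB (j y).2 x = x} : ℝ)⁻¹ ≤ (Nat.card F : ℝ)⁻¹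
      rw [show (if (j y).1 = 1 then (Nat.card K : ℝ)⁻¹ else 1)
          = (if (j y).1 = 1 then (Nat.card K : ℝ) else 1)⁻¹ by split_ifs <;> simp, ← mul_inv]
      refine inv_anti₀ hFR ?_
      calc (Nat.card F : ℝ) ≤ (Nat.card {k : K // φ y (k : V) = k} : ℝ)
              * Nat.card {x : V ⧸ K // ψB (j y).2 x = x} := by exact_mod_cast hfib
        _ ≤ _ := mul_le_mul_of_nonneg_right hKle (Nat.cast_nonneg _)
    · -- the constants
      obtain ⟨t, ht⟩ := Subgroup.card_dvd_of_injective j hj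
      rw [ht, Nat.mul_div_cancel_left t Nat.card_pos, hVK]
      rw [Nat.card_prod] at ht
      have htR : (Nat.card A : ℝ) * Nat.card B = Nat.card C * t := by exact_mod_cast ht
      have ht0 : (t : ℝ) ≠ 0 := by
        intro h
        rw [h, mul_zero] at htR
        have : (0 : ℝ) < (Nat.card A : ℝ) * Nat.card B :=
          mul_pos (Nat.cast_pos.2 Nat.card_pos) (Nat.cast_pos.2 Nat.card_pos)
        linarith
      have h1 : (Nat.card (V ⧸ K) : ℝ) ≠ 0 := Nat.cast_ne_zero.2 Nat.card_pos.ne'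
      have h2 : (Nat.card K : ℝ) ≠ 0 := Nat.cast_ne_zero.2 Nat.card_pos.ne'
      push_cast
      field_simp
      linear_combination -((Nat.card A : ℝ) * Nat.card B + Nat.card C * t) * htR

end Faithful

end Cfsg.Agent.H45
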