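import Cfsg.Agent.H26.CoverDefect
import Cfsg.Agent.H40.InducedBlocks
import Cfsg.Agent.H41.Covering
import Cfsg.Agent.H41.PrimeNormal
import Cfsg.Agent.H43.Glauberman
import Cfsg.Agent.H43.CoprimeExt
import Cfsg.Agent.H43.PPrimeDegree
import Cfsg.Agent.H69.CentralBlocks

/-!
# Blocks over an invariant character of a normal subgroup of order prime to `p`

If `θ` is an invariant irreducible character of a normal `p'`-subgroup `K`, the Brauer map at a
`p`-subgroup `P` sends the idempotent of `θ` to that of its Glauberman correspondent in `C_K(P)`.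
-/

set_option autoImplicit false

namespace Cfsg.Agent.H45.PrincipalType

open Cfsg
open scoped ComplexConjugate
open Cfsg.Agent.H41 (localRing res ResField omega omegaLoc omegaBar classSumZ groupAlgCenter
  incl redZ centerOfFun idemBar twistIrr setIdemFun)

universe u

variable {G : Type u} [Group G] [Fintype G]
variable (K : Subgroup G) [hKn : K.Normal] [Fintype K]

/-- `θ` is a constituent of the restriction of `χ`. -/
abbrev Over (χ : IrrCharacter G) (θ : IrrCharacter K) : Prop :=
  classInner (fun k : K => (χ : G → ℂ) k) (θ : K → ℂ) ≠ 0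

/-- `θ` is invariant in `G`. -/
abbrev Inv (θ : IrrCharacter K) : Prop := ∀ g : G, twistIrr K θ g = θ

variable {K}

theorem inv_closed {θ : IrrCharacter K} (hθ : Inv K θ) :
    ∀ η ∈ ({θ} : Set (IrrCharacter K)), ∀ g : G, twistIrr K η g ∈ ({θ} : Set (IrrCharacter K)) := by
  intro η hη g
  rw [Set.mem_singleton_iff] at hη ⊢
  rw [hη, hθ g]

/-- The constituent of a character above an invariant character is that character. -/
theorem over_iff_eq {θ η : IrrCharacter K} (hθ : Inv K θ) {χ : IrrCharacter G} (hη : Over K χ η) :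
    Over K χ θ ↔ η = θ := by
  refine ⟨fun h => ?_, fun h => h ▸ hη⟩
  obtain ⟨g, hg⟩ := H41.exists_twistIrr_eq K χ h hη
  rw [← hg, hθ g]

/-- Constituents compose along a chain of normal subgroups. -/
theorem over_trans {N : Subgroup G} [Fintype N] {L : Subgroup G} [Fintype L] (h : L ≤ N)
    [Fintype (L.subgroupOf N)] {χ : IrrCharacter G} {η : IrrCharacter N} {κ : IrrCharacter L}
    (h1 : classInner (fun n : N => (χ : G → ℂ) n) (η : N → ℂ) ≠ 0)
    (h2 : classInner (fun l : L => (η : N → ℂ) ⟨l, h l.2⟩) (κ : L → ℂ) ≠ 0) :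
    classInner (fun l : L => (χ : G → ℂ) l) (κ : L → ℂ) ≠ 0 := by
  classical
  have hN : IsCharacter N (fun n : N => (χ : G → ℂ) n) :=
    H26.isCharacter_comp (H26.irr_isCharacter χ) N.subtype
  have e := H43.mult_comp (Subgroup.inclusion h) hN κ
  have hL : IsCharacter L (fun l : L => (χ : G → ℂ) l) :=
    H26.isCharacter_comp (H26.irr_isCharacter χ) L.subtype
  have hL' : IsCharacter L (fun l : L => (η : N → ℂ) ⟨l, h l.2⟩) :=
    H26.isCharacter_comp (H26.irr_isCharacter η) (Subgroup.inclusion h)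
  rw [H43.classInner_eq_mult hN, Nat.cast_ne_zero] at h1
  rw [H43.classInner_eq_mult hL', Nat.cast_ne_zero] at h2
  rw [H43.classInner_eq_mult hL, Nat.cast_ne_zero]
  change H43.mult (fun d : L => (χ : G → ℂ) ((Subgroup.inclusion h d : N) : G)) κ ≠ 0
  rw [e]
  intro h0
  exact mul_ne_zero h1 h2 (Finset.sum_eq_zero_iff.1 h0 η (Finset.mem_univ η))

variable {p : ℕ} [hp : Fact p.Prime]

theorem not_dvd_charDegree (hK : ¬ p ∣ Nat.card K) (θ : IrrCharacter K) :
    ¬ p ∣ charDegree (θ : K → ℂ) :=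
  fun h => hK (h.trans (H43.irr_charDegree_dvd θ))

variable {M : Ideal AlgInt} [M.IsMaximal]

theorem singleton_closed (hM : IsPModular p M) (hK : ¬ p ∣ Nat.card K) (θ : IrrCharacter K) :
    ∀ η η' : IrrCharacter K, SameBlock M (η : K → ℂ) (η' : K → ℂ) →
      η ∈ ({θ} : Set (IrrCharacter K)) → η' ∈ ({θ} : Set (IrrCharacter K)) := by
  intro η η' h hη
  rw [Set.mem_singleton_iff] at hη
  subst hη
  rw [← H41.blockOf_eq_singleton_of_not_dvd K hM hK η]
  exact h

/-- The idempotent of an invariant character, over the local ring. -/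
noncomputable def eLoc (hM : IsPModular p M) (hK : ¬ p ∣ Nat.card K) {θ : IrrCharacter K}
    (hθ : Inv K θ) : groupAlgCenter (localRing M) G :=
  centerOfFun
    (fun g => ⟨setIdemFun K {θ} g, H41.setIdemFun_mem K (singleton_closed hM hK θ) g⟩)
    (fun g h => Subtype.ext (H41.setIdemFun_conj K (inv_closed hθ) g h))

/-- The idempotent of an invariant character, modulo `M`. -/
noncomputable def eBar (hM : IsPModular p M) (hK : ¬ p ∣ Nat.card K) {θ : IrrCharacter K}
    (hθ : Inv K θ) : groupAlgCenter (ResField M) G :=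
  redZ M (eLoc hM hK hθ)

open scoped Classical in
/-- A sum of a function supported in a subgroup is the sum over the subgroup. -/
theorem sum_eq_sum_sub {A : Type*} [Group A] [Fintype A] (B : Subgroup A) [Fintype B] (F : A → ℂ)
    (hF : ∀ a, a ∉ B → F a = 0) : ∑ a, F a = ∑ b : B, F b :=
  ((Finset.sum_subset (Finset.subset_univ (Finset.univ.map (Function.Embedding.subtype (· ∈ B))))
    fun a _ ha => hF a fun hb => ha (Finset.mem_map.2 ⟨⟨a, hb⟩, Finset.mem_univ _, rfl⟩)).symm).trans
    (Finset.sum_map _ _ _)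

open scoped Classical in
theorem omegaBar_eBar (hM : IsPModular p M) (hK : ¬ p ∣ Nat.card K) {θ : IrrCharacter K}
    (hθ : Inv K θ) (χ : IrrCharacter G) :
    omegaBar M χ (eBar hM hK hθ) = if Over K χ θ then 1 else 0 := by
  have : Finite (ConjClasses G) := Quotient.finite _
  have := Fintype.ofFinite (ConjClasses G)
  obtain ⟨η, hη⟩ := H41.exists_constituent K χ
  have h : omegaLoc M χ (eLoc hM hK hθ) = if Over K χ θ then 1 else 0 := by
    apply Subtype.ext
    rw [H41.coe_omegaLoc, H41.omega_apply]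
    simp only [eLoc, H41.coeff_incl, H41.coeff_centerOfFun]
    rw [sum_eq_sum_sub K _ (fun g hg => by rw [setIdemFun, dif_neg hg, zero_mul]),
      H41.sum_mul_restrict K (fun g n => H41.setIdemFun_conj K (inv_closed hθ) n g) χ hη,
      H41.sum_setIdemFun_below]
    simp only [Set.mem_singleton_iff]
    by_cases h : Over K χ θ
    · rw [if_pos h, if_pos ((over_iff_eq hθ hη).1 h)]; rfl
    · rw [if_neg h, if_neg fun e => h ((over_iff_eq hθ hη).2 e)]; rfl
  rw [eBar, H41.omegaBar_redZ, h]
  split <;> simp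

section Brauer

variable (P : Subgroup G)

/-- The Brauer homomorphism to the centre of the group algebra of the centraliser. -/
noncomputable def brC (hM : IsPModular p M) (hP : IsPGroup p P) :
    groupAlgCenter (ResField M) G →ₐ[ResField M]
      groupAlgCenter (ResField M) (Subgroup.centralizer (P : Set G)) :=
  haveI := H41.IsPModular.charP hM
  H40.brauerCenterHom (p := p) hP le_rfl (Subgroup.centralizer_le_normalizer (P : Set G))

theorem brC_eq_brauerZ (hM : IsPModular p M) (hP : IsPGroup p P)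
    (z : groupAlgCenter (ResField M) G) :
    brC P hM hP z = H40.brauerZ P (Subgroup.centralizer (P : Set G))
      (Subgroup.centralizer_le_normalizer (P : Set G)) z := rfl

theorem brC_eq_restrictZ (hM : IsPModular p M) (hP : IsPGroup p P)
    (z : groupAlgCenter (ResField M) G) :
    brC P hM hP z = H40.restrictZ M (Subgroup.centralizer (P : Set G)) z := by
  refine Subtype.ext (H40.ext_coeff fun h => ?_)
  rw [brC_eq_brauerZ, H40.coe_brauerZ, H40.coe_brauerZ, H40.coeff_brauerMap_of_mem _ h.2,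
    H40.coeff_brauerMap_of_mem _ (H40.mem_centralizer_bot _)]

/-- The inclusion of `C_K(P)`, seen inside `C(P)`, into `K`. -/
def incK : (K.subgroupOf (Subgroup.centralizer (P : Set G))) →* K where
  toFun c := ⟨(c : Subgroup.centralizer (P : Set G)), c.2⟩
  map_one' := rfl
  map_mul' _ _ := rfl

/-- The action of `P` on `K` by conjugation. -/
def conjK : P →* MulAut K := MulAut.conjNormal.comp P.subtype

theorem glaubermanData (hP : IsPGroup p P) (hK : ¬ p ∣ Nat.card K) :
    H43.GlaubermanData p (conjK (K := K) P) (incK (K := K) P) where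
  prime := hp.out
  pgroup := hP
  coprime := hK
  inj a b h := Subtype.ext (Subtype.ext (congrArg (fun x : K => (x : G)) h))
  fixed k := by
    constructor
    · intro h
      refine ⟨⟨⟨(k : G), Subgroup.mem_centralizer_iff.2 fun q hq => ?_⟩, k.2⟩, rfl⟩
      have e := congrArg (fun x : K => (x : G)) (h ⟨q, hq⟩)
      simp only [conjK, MonoidHom.comp_apply, Subgroup.coe_subtype, MulAut.conjNormal_apply] at e
      exact mul_inv_eq_iff_eq_mul.1 e
    · rintro ⟨c, rfl⟩ s
      apply Subtype.ext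
      simp only [conjK, MonoidHom.comp_apply, Subgroup.coe_subtype, MulAut.conjNormal_apply]
      exact mul_inv_eq_iff_eq_mul.2 (Subgroup.mem_centralizer_iff.1 c.1.2 _ s.2)

theorem invFun_conjK {θ : IrrCharacter K} (hθ : Inv K θ) :
    H43.InvFun (conjK (K := K) P) (θ : K → ℂ) := by
  intro s k
  have e := congrFun (congrArg Subtype.val (hθ (s : G))) k
  rw [H41.twistIrr_apply] at e
  refine Eq.trans (congrArg (θ : K → ℂ) (Subtype.ext ?_)) e
  simp [conjK, MulAut.conjNormal_apply]

/-- A central element supported in a normal subgroup is evaluated on a constituent. -/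
theorem coe_omegaLoc_supported {A : Type u} [Group A] [Fintype A] (B : Subgroup A) [B.Normal]
    [Fintype B] (w : groupAlgCenter (localRing M) A) (f : A → ℂ)
    (hf : ∀ a b, f (b * a * b⁻¹) = f a)
    (hw : ∀ a, (((w : MonoidAlgebra (localRing M) A).coeff a : localRing M) : ℂ) = f a)
    (hsupp : ∀ a, a ∉ B → f a = 0) (ψ : IrrCharacter A) {φ : IrrCharacter B}
    (hφ : Over B ψ φ) :
    ((omegaLoc M ψ w : localRing M) : ℂ) =
      (∑ b : B, f b * (φ : B → ℂ) b) / (φ : B → ℂ) 1 := by
  rw [← H41.sum_mul_restrict B (f := fun b : B => f b) (fun g n => hf n g) ψ hφ, H41.coe_omegaLoc,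
    H41.omega_apply, ← sum_eq_sum_sub B (fun a => f a * (ψ : A → ℂ) a)
      (fun a ha => by rw [hsupp a ha, zero_mul])]
  congr 1
  exact Finset.sum_congr rfl fun a _ => by rw [H41.coeff_incl, hw]

theorem coe_coeff_eLoc (hM : IsPModular p M) (hK : ¬ p ∣ Nat.card K) {θ : IrrCharacter K}
    (hθ : Inv K θ) (g : G) :
    (((eLoc hM hK hθ : MonoidAlgebra (localRing M) G).coeff g : localRing M) : ℂ) =
      setIdemFun K {θ} g := by
  rw [eLoc, H41.coeff_centerOfFun]

theorem coe_coeff_brauerZ_eLoc (hM : IsPModular p M) (hK : ¬ p ∣ Nat.card K) {θ : IrrCharacter K}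
    (hθ : Inv K θ) (h : Subgroup.centralizer (P : Set G)) :
    (((H40.brauerZ P (Subgroup.centralizer (P : Set G))
        (Subgroup.centralizer_le_normalizer (P : Set G)) (eLoc hM hK hθ) :
        MonoidAlgebra (localRing M) (Subgroup.centralizer (P : Set G))).coeff h : localRing M) : ℂ) =
      setIdemFun K {θ} (h : G) := by
  rw [H40.coe_brauerZ, H40.coeff_brauerMap_of_mem _ h.2, coe_coeff_eLoc]

/-- The value of the reduced central character at the Brauer image of the idempotent of `θ` is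
nonzero exactly over the constituents of multiplicity prime to `p`. -/
theorem omegaBar_brC_eBar_ne_zero_iff (hM : IsPModular p M) (hP : IsPGroup p P)
    (hK : ¬ p ∣ Nat.card K) {θ : IrrCharacter K} (hθ : Inv K θ)
    [Fintype (Subgroup.centralizer (P : Set G))]
    [Fintype (K.subgroupOf (Subgroup.centralizer (P : Set G)))]
    {ψ : IrrCharacter (Subgroup.centralizer (P : Set G))}
    {φ : IrrCharacter (K.subgroupOf (Subgroup.centralizer (P : Set G)))}
    (hφ : Over (K.subgroupOf (Subgroup.centralizer (P : Set G))) ψ φ) :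
    omegaBar M ψ (brC P hM hP (eBar hM hK hθ)) ≠ 0 ↔
      ¬ p ∣ H43.resMult (incK (K := K) P) θ φ := by
  classical
  set m := H43.resMult (incK (K := K) P) θ φ
  set v := omegaLoc M ψ
    (H40.brauerZ P (Subgroup.centralizer (P : Set G)) (Subgroup.centralizer_le_normalizer (P : Set G)) (eLoc hM hK hθ))
  have hv : omegaBar M ψ (brC P hM hP (eBar hM hK hθ)) = res M v := by
    rw [brC_eq_brauerZ, eBar, ← H40.redZ_brauerZ, H41.omegaBar_redZ]
  have hcoe : (v : ℂ) = (∑ c : (K.subgroupOf (Subgroup.centralizer (P : Set G))), setIdemFun K {θ} ((c : (Subgroup.centralizer (P : Set G))) : G) * (φ : (K.subgroupOf (Subgroup.centralizer (P : Set G))) → ℂ) c) /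
      (φ : (K.subgroupOf (Subgroup.centralizer (P : Set G))) → ℂ) 1 :=
    coe_omegaLoc_supported (K.subgroupOf (Subgroup.centralizer (P : Set G))) _ (fun h : (Subgroup.centralizer (P : Set G)) => setIdemFun K {θ} (h : G))
      (fun a b => by
        simp only [Subgroup.coe_mul, Subgroup.coe_inv]
        exact H41.setIdemFun_conj K (inv_closed hθ) _ _)
      (coe_coeff_brauerZ_eLoc P hM hK hθ) (fun a ha => dif_neg ha) ψ hφ
  have hsum : ∀ c : (K.subgroupOf (Subgroup.centralizer (P : Set G))), setIdemFun K {θ} ((c : (Subgroup.centralizer (P : Set G))) : G) =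
      (Nat.card K : ℂ)⁻¹ * ((θ : K → ℂ) 1 * conj ((θ : K → ℂ) (incK P c))) := fun c => by
    rw [show (((c : (Subgroup.centralizer (P : Set G))) : G)) = ((incK P c : K) : G) from rfl, H41.setIdemFun_coe, blockCoeff,
      finsum_mem_singleton]
  have hinner : ∑ c : (K.subgroupOf (Subgroup.centralizer (P : Set G))), conj ((θ : K → ℂ) (incK P c)) * (φ : (K.subgroupOf (Subgroup.centralizer (P : Set G))) → ℂ) c =
      (Nat.card (K.subgroupOf (Subgroup.centralizer (P : Set G))) : ℂ) * (m : ℂ) := by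
    have h := congrArg (starRingEnd ℂ) (H43.sum_res_mul_conj (ι := incK (K := K) P) θ φ)
    rw [map_sum] at h
    simpa only [map_mul, Complex.conj_conj, Complex.conj_natCast] using h
  have hval : (v : ℂ) * ((Nat.card K * charDegree (φ : (K.subgroupOf (Subgroup.centralizer (P : Set G))) → ℂ) : ℕ) : ℂ) =
      ((charDegree (θ : K → ℂ) * Nat.card (K.subgroupOf (Subgroup.centralizer (P : Set G))) * m : ℕ) : ℂ) := by
    have hφ0 := H26.irr_one_ne_zero φ
    have hK0 : (Nat.card K : ℂ) ≠ 0 := Nat.cast_ne_zero.2 Nat.card_pos.ne'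
    rw [hcoe]
    simp only [hsum, mul_assoc]
    rw [← Finset.mul_sum, ← Finset.mul_sum, hinner]
    push_cast
    rw [← H43.irr_charDegree_spec, ← H43.irr_charDegree_spec]
    field_simp
  have hres : res M v * ((Nat.card K * charDegree (φ : (K.subgroupOf (Subgroup.centralizer (P : Set G))) → ℂ) : ℕ) : ResField M) =
      ((charDegree (θ : K → ℂ) * Nat.card (K.subgroupOf (Subgroup.centralizer (P : Set G))) * m : ℕ) : ResField M) := by
    rw [← map_natCast (res M), ← map_natCast (res M), ← map_mul]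
    exact congrArg (res M) (Subtype.ext (by push_cast; exact_mod_cast hval))
  have hC : ¬ p ∣ Nat.card (K.subgroupOf (Subgroup.centralizer (P : Set G))) := (glaubermanData P hP hK).not_dvd
  have hb : ((Nat.card K * charDegree (φ : (K.subgroupOf (Subgroup.centralizer (P : Set G))) → ℂ) : ℕ) : ResField M) ≠ 0 := by
    rw [Ne, H41.IsPModular.natCast_eq_zero_iff hM, hp.out.dvd_mul]
    exact not_or.2 ⟨hK, fun h => hC (h.trans (H43.irr_charDegree_dvd φ))⟩
  have hfield : IsField (ResField M) :=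
    (Ideal.Quotient.maximal_ideal_iff_isField_quotient M).1 inferInstance
  haveI := hfield.isDomain
  rw [hv, Ne]
  constructor
  · intro h hm
    have : ((charDegree (θ : K → ℂ) * Nat.card (K.subgroupOf (Subgroup.centralizer (P : Set G))) * m : ℕ) : ResField M) = 0 :=
      (H41.IsPModular.natCast_eq_zero_iff hM _).2 (hm.mul_left _)
    rw [← hres] at this
    exact (mul_eq_zero.1 this).elim h hb
  · intro hm h
    rw [h, zero_mul, eq_comm, H41.IsPModular.natCast_eq_zero_iff hM, hp.out.dvd_mul,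
      hp.out.dvd_mul] at hres
    rcases hres with (h1 | h1) | h1
    · exact not_dvd_charDegree hK θ h1
    · exact hC h1
    · exact hm h1

/-- Two characters of `C(P)` seen by the Brauer image of `θ` lie over the same character of
`C_K(P)`. -/
theorem constituent_eq (hM : IsPModular p M) (hP : IsPGroup p P)
    (hK : ¬ p ∣ Nat.card K) {θ : IrrCharacter K} (hθ : Inv K θ)
    [Fintype (Subgroup.centralizer (P : Set G))]
    [Fintype (K.subgroupOf (Subgroup.centralizer (P : Set G)))]
    {ψ ψ' : IrrCharacter (Subgroup.centralizer (P : Set G))}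
    (h : omegaBar M ψ (brC P hM hP (eBar hM hK hθ)) ≠ 0)
    (h' : omegaBar M ψ' (brC P hM hP (eBar hM hK hθ)) ≠ 0) :
    ∃ φ : IrrCharacter (K.subgroupOf (Subgroup.centralizer (P : Set G))),
      Over _ ψ φ ∧ Over _ ψ' φ ∧ Inv (G := Subgroup.centralizer (P : Set G)) _ φ := by
  obtain ⟨φ, hφ⟩ := H41.exists_constituent (K.subgroupOf (Subgroup.centralizer (P : Set G))) ψ
  obtain ⟨φ', hφ'⟩ := H41.exists_constituent (K.subgroupOf (Subgroup.centralizer (P : Set G))) ψ'
  obtain ⟨_, _, hu⟩ := (glaubermanData P hP hK).existsUnique θ (invFun_conjK P hθ)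
  have e := hu φ ((omegaBar_brC_eBar_ne_zero_iff P hM hP hK hθ hφ).1 h)
  have e' := hu φ' ((omegaBar_brC_eBar_ne_zero_iff P hM hP hK hθ hφ').1 h')
  refine ⟨φ, hφ, (e.trans e'.symm) ▸ hφ', fun g => ?_⟩
  have hg : Over (K.subgroupOf (Subgroup.centralizer (P : Set G))) ψ
      (twistIrr (K.subgroupOf (Subgroup.centralizer (P : Set G))) φ g) := by
    show _ ≠ _
    rw [H41.classInner_twistIrr]
    exact hφ
  exact (hu _ ((omegaBar_brC_eBar_ne_zero_iff P hM hP hK hθ hg).1 h)).trans e.symm

/-- Some character of `C(P)` is seen by the Brauer image of `θ`. -/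
theorem exists_omegaBar_brC_eBar_ne_zero (hM : IsPModular p M) (hP : IsPGroup p P)
    (hK : ¬ p ∣ Nat.card K) {θ : IrrCharacter K} (hθ : Inv K θ) :
    ∃ ψ : IrrCharacter (Subgroup.centralizer (P : Set G)),
      omegaBar M ψ (brC P hM hP (eBar hM hK hθ)) ≠ 0 := by
  classical
  have := Fintype.ofFinite (Subgroup.centralizer (P : Set G))
  have := Fintype.ofFinite (K.subgroupOf (Subgroup.centralizer (P : Set G)))
  obtain ⟨φ, hφ, -⟩ := (glaubermanData P hP hK).existsUnique θ (invFun_conjK P hθ)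
  obtain ⟨ψ, hψ⟩ := H41.exists_over (K.subgroupOf (Subgroup.centralizer (P : Set G))) φ
  exact ⟨ψ, (omegaBar_brC_eBar_ne_zero_iff P hM hP hK hθ hψ).2 hφ⟩

end Brauer

theorem twistIrr_apply_eq {θ : IrrCharacter K} (hθ : Inv K θ) (g : G) (k : K) :
    (θ : K → ℂ) ⟨g * k * g⁻¹, hKn.conj_mem k k.2 g⟩ = (θ : K → ℂ) k := by
  rw [← H41.twistIrr_apply K θ g k, hθ g]

/-- An invariant character of a normal `p'`-subgroup lies under a character of degree prime to
`p`. -/
theorem exists_over_not_dvd (hK : ¬ p ∣ Nat.card K) {θ : IrrCharacter K} (hθ : Inv K θ) :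
    ∃ χ : IrrCharacter G, ¬ p ∣ charDegree (χ : G → ℂ) ∧ Over K χ θ := by
  classical
  obtain ⟨S⟩ : Nonempty (Sylow p G) := inferInstance
  set T := K ⊔ (S : Subgroup G)
  have hKT : K ≤ T := le_sup_left
  have := Fintype.ofFinite T
  have := Fintype.ofFinite (K.subgroupOf T)
  set e := Subgroup.subgroupOfEquivOfLe hKT
  set θT : IrrCharacter (K.subgroupOf T) := H43.irrCongr e θ
  have hinv : ∀ x : T, H43.irrConj (K.subgroupOf T) x θT = θT := fun x =>
    Subtype.ext (funext fun k => by
      rw [H43.irrConj_apply, H43.irrCongr_apply, H43.irrCongr_apply]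
      refine Eq.trans (congrArg (θ : K → ℂ) (Subtype.ext ?_))
        (twistIrr_apply_eq hθ (x : G) (e k))
      simp [e, MulAut.conjNormal_apply])
  have hcardT : ¬ p ∣ Nat.card (K.subgroupOf T) := by rwa [Nat.card_congr e.toEquiv]
  obtain ⟨n, hn⟩ : ∃ n, (K.subgroupOf T).index = p ^ n := by
    obtain ⟨a, ha⟩ := IsPGroup.iff_card.1 S.isPGroup'
    have hd : (K.subgroupOf T).index ∣ Nat.card S := by
      rw [← Subgroup.relIndex, show T = (S : Subgroup G) ⊔ K from sup_comm _ _,
        Subgroup.relIndex_sup_right]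
      exact Subgroup.relIndex_dvd_card _ _
    rw [ha] at hd
    obtain ⟨n, -, hn⟩ := (Nat.dvd_prime_pow hp.out).1 hd
    exact ⟨n, hn⟩
  have hdet : Cfsg.detOrder θT.1 ∣ Nat.card (K.subgroupOf T) :=
    H43.detOrder_dvd_card (H26.irr_isCharacter θT)
  have hcop : Nat.Coprime (K.subgroupOf T).index
      (Cfsg.detOrder θT.1 * Cfsg.charDegree θT.1) := by
    rw [hn]
    refine Nat.Coprime.pow_left n ((hp.out.coprime_iff_not_dvd).2 fun h => ?_)
    rcases hp.out.dvd_mul.1 h with h | h
    · exact hcardT (h.trans hdet)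
    · exact hcardT (h.trans (H43.irr_charDegree_dvd θT))
  obtain ⟨ψ, hψ, -⟩ := H43.exists_coprime_ext θT hinv hcop
  have hres : ∀ k : K, (ψ : T → ℂ) ⟨k, hKT k.2⟩ = (θ : K → ℂ) k := fun k => by
    have h := hψ (e.symm k)
    rw [H43.irrCongr_apply, MulEquiv.apply_symm_apply] at h
    exact h
  have hψd : ¬ p ∣ charDegree (ψ : T → ℂ) := by
    intro h
    refine not_dvd_charDegree hK θ ?_
    rw [show charDegree (θ : K → ℂ) = charDegree (ψ : T → ℂ) by
      simp only [charDegree]; rw [← hres 1]; rfl]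
    exact h
  have hT : ¬ p ∣ T.index := fun h => S.not_dvd_index (h.trans (Subgroup.index_dvd_of_le le_sup_right))
  obtain ⟨χ, hχd, hχ⟩ := H43.exists_above_not_dvd T ψ hT hψd
  refine ⟨χ, hχd, over_trans hKT (η := ψ) ?_ ?_⟩
  · have hc : IsCharacter T (fun n : T => (χ : G → ℂ) n) :=
      H26.isCharacter_comp (H26.irr_isCharacter χ) T.subtype
    rw [H43.classInner_eq_mult hc, Nat.cast_ne_zero]
    exact hχ
  · rw [show (fun l : K => (ψ : T → ℂ) ⟨l, hKT l.2⟩) = (θ : K → ℂ) from funext hres,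
      H26.classInner_irr, if_pos rfl]
    exact one_ne_zero

/-- Regular elements of an extension of a `p'`-group by a `p`-group lie below. -/
theorem mem_of_regular {N : Subgroup G} {P : Subgroup G} (hP : IsPGroup p P)
    (hN : ∀ n ∈ N, ∃ k ∈ K, ∃ q ∈ P, n = k * q) {n : G} (hn : n ∈ N) (hreg : ¬ p ∣ orderOf n) :
    n ∈ K := by
  obtain ⟨k, hk, q, hq, rfl⟩ := hN n hn
  obtain ⟨a, ha⟩ := hP ⟨q, hq⟩
  have h1 : orderOf ((k * q : G) : G ⧸ K) ∣ p ^ a := by
    refine orderOf_dvd_of_pow_eq_one ?_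
    rw [QuotientGroup.mk_mul, (QuotientGroup.eq_one_iff k).2 hk, one_mul, ← QuotientGroup.mk_pow,
      show q ^ p ^ a = 1 from congrArg (fun x : P => (x : G)) ha]
    rfl
  have h2 : orderOf ((k * q : G) : G ⧸ K) ∣ orderOf (k * q) :=
    orderOf_map_dvd (QuotientGroup.mk' K) _
  have h3 : orderOf ((k * q : G) : G ⧸ K) = 1 :=
    Nat.eq_one_of_dvd_coprimes (((hp.out.coprime_iff_not_dvd).2 hreg).pow_left a) h1 h2
  exact (QuotientGroup.eq_one_iff _).1 (orderOf_eq_one_iff.1 h3)

/-- **One block over `θ`**: if the `p`-group `P` is a Sylow subgroup of a normal subgroup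
`N = K P` and the `p`-regular elements centralising `P` lie in `K`, all characters over the
invariant character `θ` lie in one block. -/
theorem sameBlock_of_over (hM : IsPModular p M) (hK : ¬ p ∣ Nat.card K) {θ : IrrCharacter K}
    (hθ : Inv K θ) (N : Subgroup G) [N.Normal] {P : Subgroup G} (hP : IsPGroup p P)
    (hKN : K ≤ N) (hPN : P ≤ N) (hN : ∀ n ∈ N, ∃ k ∈ K, ∃ q ∈ P, n = k * q)
    (hreg : ∀ x ∈ Subgroup.centralizer (P : Set G), ¬ p ∣ orderOf x → x ∈ K)
    {χ χ' : IrrCharacter G} (hχ : Over K χ θ) (hχ' : Over K χ' θ) :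
    SameBlock M (χ : G → ℂ) (χ' : G → ℂ) := by
  classical
  have := Fintype.ofFinite N
  have := Fintype.ofFinite (Subgroup.centralizer (P : Set G))
  have := Fintype.ofFinite (K.subgroupOf (Subgroup.centralizer (P : Set G)))
  have := Fintype.ofFinite (K.subgroupOf N)
  set e := Subgroup.subgroupOfEquivOfLe hKN
  set θN : IrrCharacter (K.subgroupOf N) := H43.irrCongr e θ
  have hcardN : ¬ p ∣ Nat.card (K.subgroupOf N) := by rwa [Nat.card_congr e.toEquiv]
  have hinvN : Inv (K.subgroupOf N) θN := fun x => Subtype.ext (funext fun k => by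
    rw [H41.twistIrr_apply, H43.irrCongr_apply, H43.irrCongr_apply]
    exact (congrArg (θ : K → ℂ) (Subtype.ext (by simp [e]))).trans
      (twistIrr_apply_eq hθ (x : G) (e k)))
  have hregN : ∀ n : N, ¬ p ∣ orderOf n → n ∈ K.subgroupOf N := fun n hn =>
    mem_of_regular hP hN n.2 (by rwa [← Subgroup.orderOf_coe] at hn)
  have hPS : ¬ p ∣ (P.subgroupOf N).index := by
    have hcard : Nat.card N ≤ Nat.card K * Nat.card P := by
      rw [← Nat.card_prod]
      refine Nat.card_le_card_of_surjective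
        (fun x : K × P => (⟨x.1 * x.2, mul_mem (hKN x.1.2) (hPN x.2.2)⟩ : N)) fun n => ?_
      obtain ⟨k, hk, q, hq, hn⟩ := hN n n.2
      exact ⟨(⟨k, hk⟩, ⟨q, hq⟩), Subtype.ext hn.symm⟩
    obtain ⟨a, ha⟩ := IsPGroup.iff_card.1 hP
    have hPsub : Nat.card (P.subgroupOf N) = Nat.card P :=
      Nat.card_congr (Subgroup.subgroupOfEquivOfLe hPN).toEquiv
    have hdvd : Nat.card K * Nat.card P ∣ Nat.card N :=
      Nat.Coprime.mul_dvd_of_dvd_of_dvd
        (by rw [ha]; exact (((hp.out.coprime_iff_not_dvd).2 hK).symm).pow_right a)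
        (Subgroup.card_dvd_of_le hKN) (Subgroup.card_dvd_of_le hPN)
    have he : Nat.card N = Nat.card K * Nat.card P :=
      le_antisymm hcard (Nat.le_of_dvd Nat.card_pos hdvd)
    have hidx : (P.subgroupOf N).index = Nat.card K := by
      have h := (P.subgroupOf N).card_mul_index
      rw [hPsub, he, mul_comm (Nat.card K)] at h
      exact Nat.eq_of_mul_eq_mul_left Nat.card_pos h
    rwa [hidx]
  obtain ⟨χN, hχNd, hχN⟩ := exists_over_not_dvd (p := p) hcardN hinvN
  have hb := H41.isPBlock_blockOf (M := M) χN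
  set b := blockOf M (χN : N → ℂ)
  have hPsubp : IsPGroup p (P.subgroupOf N) :=
    hP.of_equiv (Subgroup.subgroupOfEquivOfLe hPN).symm
  have hdef : IsDefectGroup p M b (P.subgroupOf N) := by
    have := H69.CentralBlocks.isDefectGroup_sylow hM hb (H41.mem_blockOf_self χN) hχNd
      (hPsubp.toSylow hPS)
    simpa using this
  -- every block over `θ` is seen by a character of `C(P)` over the correspondent
  have key : ∀ χ₀ : IrrCharacter G, Over K χ₀ θ →
      ∃ ψ : IrrCharacter (Subgroup.centralizer (P : Set G)),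
        omegaBar M ψ (brC P hM hP (idemBar (H41.isPBlock_blockOf (M := M) χ₀))) ≠ 0 ∧
        omegaBar M ψ (brC P hM hP (eBar hM hK hθ)) ≠ 0 := by
    intro χ₀ h₀
    have hB := H41.isPBlock_blockOf (M := M) χ₀
    obtain ⟨η, hη⟩ := H41.exists_constituent N χ₀
    have hηθ : Over (K.subgroupOf N) η θN := by
      obtain ⟨κ, hκ⟩ := H41.exists_constituent (K.subgroupOf N) η
      set κ' : IrrCharacter K := H43.irrCongr e.symm κ
      have hκ' : κ' = θ := by
        refine (over_iff_eq hθ (η := κ') ?_).1 h₀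
        refine over_trans hKN (η := η) hη ?_
        have hc := H43.classInner_congr e.symm
          (fun c : K.subgroupOf N => (η : N → ℂ) c) (κ : K.subgroupOf N → ℂ)
        have : (fun l : K => (η : N → ℂ) ⟨l, hKN l.2⟩) =
            fun l : K => (η : N → ℂ) ((e.symm l : K.subgroupOf N) : N) := rfl
        rw [this]
        exact fun h => hκ (hc.symm.trans h)
      have : κ = θN := by
        apply Subtype.ext
        funext c
        show (κ : K.subgroupOf N → ℂ) c = (θ : K → ℂ) (e c)
        rw [← hκ', H43.irrCongr_apply, MulEquiv.symm_apply_apply]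
      exact this ▸ hκ
    have hηb : η ∈ b :=
      H41.mem_block_of_regular_in (K.subgroupOf N) hM hregN
        (H41.isPBlock_blockOf (M := M) θN) hb (H41.mem_blockOf_self χN)
        (H41.mem_blockOf_self θN) (H41.mem_blockOf_self θN) hχN hηθ
    obtain ⟨D, hD, hDN⟩ := H26.exists_defectGroup_inf_eq hM hb hPN hdef hB
      ⟨χ₀, H41.mem_blockOf_self χ₀, η, hηb, hη⟩
    obtain ⟨g, hg, hgD⟩ := H40.isDefectGroup_iff.1 hD
    have hgP : g ∈ Subgroup.centralizer (P : Set G) :=
      H40.le_centralizer_singleton_iff.1 ((hDN ▸ inf_le_left : P ≤ D).trans hgD.1)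
    set ε := brC P hM hP (idemBar hB)
    have hε : ε ≠ 0 := by
      intro h0
      refine (H41.coeff_idemBar_ne_zero_iff hB g).2 ⟨hg.1, hg.2.1⟩ ?_
      have h1 := congrArg (fun w : groupAlgCenter (ResField M) (Subgroup.centralizer (P : Set G)) =>
        (w : MonoidAlgebra (ResField M) (Subgroup.centralizer (P : Set G))).coeff ⟨g, hgP⟩) h0
      simp only [ε, brC_eq_brauerZ, H40.coe_brauerZ] at h1
      rw [H40.coeff_brauerMap_of_mem _ hgP] at h1
      simpa using h1
    obtain ⟨ψ, hψ⟩ : ∃ ψ, omegaBar M ψ ε ≠ 0 := by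
      by_contra hc
      push Not at hc
      obtain ⟨n, hn⟩ := H41.isNilpotent_of_forall_omegaBar hc
      have hid : IsIdempotentElem ε := (H41.isIdempotentElem_idemBar hB).map (brC P hM hP)
      rcases n with - | n
      · exact hε (by rw [← mul_one ε, ← pow_zero ε, hn, mul_zero])
      · exact hε ((hid.pow_succ_eq n).symm.trans hn)
    refine ⟨ψ, hψ, ?_⟩
    obtain ⟨χ₁, hχ₁⟩ := H41.exists_eq_omegaBar ((omegaBar M ψ).comp (brC P hM hP))
    have e1 : ∀ z, omegaBar M ψ (brC P hM hP z) = omegaBar M χ₁ z := fun z =>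
      AlgHom.congr_fun hχ₁ z
    rw [e1] at hψ ⊢
    have hmem : χ₁ ∈ blockOf M (χ₀ : G → ℂ) := by
      by_contra hn
      rw [H41.omegaBar_idemBar, if_neg hn] at hψ
      exact hψ rfl
    rw [H41.omegaBar_eq_of_mem hB hmem (H41.mem_blockOf_self χ₀), omegaBar_eBar, if_pos h₀]
    exact one_ne_zero
  obtain ⟨ψ, hψ, hψe⟩ := key χ hχ
  obtain ⟨ψ', hψ', hψe'⟩ := key χ' hχ'
  obtain ⟨φ, hφ, hφ', -⟩ := constituent_eq P hM hP hK hθ hψe hψe'
  have hsame : ψ' ∈ blockOf M (ψ : Subgroup.centralizer (P : Set G) → ℂ) :=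
    H41.mem_block_of_regular_in (K.subgroupOf (Subgroup.centralizer (P : Set G))) hM
      (fun x hx => hreg x x.2 (by rwa [← Subgroup.orderOf_coe] at hx))
      (H41.isPBlock_blockOf (M := M) φ) (H41.isPBlock_blockOf ψ) (H41.mem_blockOf_self ψ)
      (H41.mem_blockOf_self φ) (H41.mem_blockOf_self φ) hφ hφ'
  rw [H41.omegaBar_eq_of_mem (H41.isPBlock_blockOf ψ) hsame (H41.mem_blockOf_self ψ)] at hψ'
  obtain ⟨χ₁, hχ₁⟩ := H41.exists_eq_omegaBar ((omegaBar M ψ).comp (brC P hM hP))
  have e1 : ∀ z, omegaBar M ψ (brC P hM hP z) = omegaBar M χ₁ z := fun z =>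
    AlgHom.congr_fun hχ₁ z
  rw [e1] at hψ hψ'
  have hm : ∀ χ₀ : IrrCharacter G,
      omegaBar M χ₁ (idemBar (H41.isPBlock_blockOf (M := M) χ₀)) ≠ 0 →
      χ₁ ∈ blockOf M (χ₀ : G → ℂ) := fun χ₀ h => by
    by_contra hn
    rw [H41.omegaBar_idemBar, if_neg hn] at h
    exact h rfl
  exact H41.sameBlock_trans (hm χ hψ) (H41.sameBlock_symm (hm χ' hψ'))

end Cfsg.Agent.H45.PrincipalType
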